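import Cfsg.Prelude.Def_PLocal
import Cfsg.Prelude.Def_LocalEven
import Cfsg.Agent.Primitive.Basic

/-!
# Primitive pairs in groups of local characteristic p
-/

namespace Cfsg.Agent.Primitive

set_option linter.style.haveILetI false

variable {G : Type*} [Group G] [Finite G] {p : ℕ} [Fact p.Prime]

/-- p-local subgroups. -/
def IsLocal (p : ℕ) (M : Subgroup G) : Prop :=
  ∃ T : Subgroup G, IsPGroup p T ∧ T ≠ ⊥ ∧ M = Subgroup.normalizer (T : Set G)

/-- Maximal p-local subgroups. -/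
def IsMaxLocal (p : ℕ) (M : Subgroup G) : Prop :=
  IsLocal p M ∧ ∀ L : Subgroup G, IsLocal p L → M ≤ L → L = M

theorem exists_isMaxLocal_ge {M : Subgroup G} (h : IsLocal p M) :
    ∃ L, IsMaxLocal p L ∧ M ≤ L := by
  obtain ⟨L, hML, hL⟩ := Finite.exists_le_maximal (p := fun L : Subgroup G => IsLocal p L) h
  exact ⟨L, ⟨hL.prop, fun L' hL' hle => le_antisymm (hL.le_of_ge hL' hle) hle⟩, hML⟩

theorem IsMaxLocal.pCore_ne_bot {M : Subgroup G} (h : IsMaxLocal p M) :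
    (Cfsg.pCore p M).map M.subtype ≠ ⊥ := by
  obtain ⟨T, hT, hT1, hM⟩ := h.1
  intro hb
  exact hT1 (le_bot_iff.mp (hb ▸ le_map_pCore (hM ▸ Subgroup.le_normalizer) hM.le hT))

theorem IsMaxLocal.normalizer_eq {M A : Subgroup G} (h : IsMaxLocal p M) (hA : IsPGroup p A)
    (hA1 : A ≠ ⊥) (hn : M ≤ Subgroup.normalizer (A : Set G)) :
    Subgroup.normalizer (A : Set G) = M :=
  h.2 _ ⟨A, hA, hA1, rfl⟩ hn

theorem IsMaxLocal.normalizer_pCore {M : Subgroup G} (h : IsMaxLocal p M) :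
    Subgroup.normalizer (((Cfsg.pCore p M).map M.subtype : Subgroup G) : Set G) = M :=
  h.normalizer_eq (map_pCore_isPGroup M) h.pCore_ne_bot (le_normalizer_map_char M _)

theorem IsMaxLocal.charP {M : Subgroup G} (h : IsMaxLocal p M)
    (hloc : Cfsg.IsOfLocalCharacteristic p G) :
    Subgroup.centralizer (Cfsg.pCore p M : Set M) ≤ Cfsg.pCore p M := by
  obtain ⟨T, hT, hT1, rfl⟩ := h.1
  exact hloc.2 T hT hT1

theorem IsMaxLocal.ne_top {M : Subgroup G} (h : IsMaxLocal p M) (hOp : Cfsg.pCore p G = ⊥) :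
    M ≠ ⊤ := by
  obtain ⟨T, hT, hT1, rfl⟩ := h.1
  intro htop
  exact hT1 (le_bot_iff.mp (hOp ▸ Cfsg.Agent.Cores.le_pCore (Subgroup.normalizer_eq_top_iff.mp htop) hT))

theorem IsMaxLocal.prime_dvd_card {M : Subgroup G} (h : IsMaxLocal p M) : p ∣ Nat.card M :=
  ((map_pCore_isPGroup M).card_eq_or_dvd.resolve_left
    fun h1 => h.pCore_ne_bot (Subgroup.card_eq_one.mp h1)).trans
    (Subgroup.card_dvd_of_le (Subgroup.map_subtype_le _))

theorem conj_map_isPGroup {A : Subgroup G} (hA : IsPGroup p A) (g : G) :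
    IsPGroup p ↥(A.map (MulAut.conj g).toMonoidHom) := hA.map _

theorem IsMaxLocal.conj {M : Subgroup G} (h : IsMaxLocal p M) (g : G) :
    IsMaxLocal p (M.map (MulAut.conj g).toMonoidHom) := by
  have hloc : ∀ {M : Subgroup G} (g : G), IsLocal p M → IsLocal p (M.map (MulAut.conj g).toMonoidHom) := by
    rintro M g ⟨T, hT, hT1, rfl⟩
    refine ⟨T.map (MulAut.conj g).toMonoidHom, hT.map _, fun e =>
      hT1 ((Subgroup.map_eq_bot_iff_of_injective _ (MulAut.conj g).injective).mp e), ?_⟩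
    ext y
    rw [Subgroup.mem_map_equiv, MulAut.conj_symm_apply, Subgroup.mem_normalizer_iff,
      Subgroup.mem_normalizer_iff]
    simp only [Subgroup.mem_map_equiv, MulAut.conj_symm_apply]
    constructor
    · intro h z
      have := h (g⁻¹ * z * g)
      rw [this]
      exact Iff.of_eq (congrArg (· ∈ T) (by group))
    · intro h z
      have := h (g * z * g⁻¹)
      rw [show g⁻¹ * (g * z * g⁻¹) * g = z by group] at this
      rw [this]
      exact Iff.of_eq (congrArg (· ∈ T) (by group))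
  refine ⟨hloc g h.1, fun L hL hle => ?_⟩
  have h1 := h.2 _ (hloc g⁻¹ hL) (fun m hm => ⟨g * m * g⁻¹, hle ⟨m, hm, rfl⟩, by
    simp [MulAut.conj_apply, mul_assoc]⟩)
  refine le_antisymm (fun l hl => ⟨g⁻¹ * l * g, h1.le ⟨l, hl, by
    simp [MulAut.conj_apply]⟩, by simp [MulAut.conj_apply, mul_assoc]⟩) hle

/-- Any two distinct maximal p-locals form a primitive pair. -/
theorem primitive_of_isMaxLocal (hloc : Cfsg.IsOfLocalCharacteristic p G) {M₁ M₂ : Subgroup G}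
    (h₁ : IsMaxLocal p M₁) {A : Subgroup G} (hA : A ≠ ⊥) (hle : A ≤ M₁ ⊓ M₂)
    (hn : M₁ ≤ Subgroup.normalizer (A : Set G)) :
    M₂ ⊓ Subgroup.normalizer (A : Set G) = M₁ ⊓ M₂ := by
  have h1 : Subgroup.normalizer (A : Set G) = M₁ := by
    refine le_antisymm ?_ hn
    set B := (Cfsg.pCore p A).map A.subtype with hB
    refine (normalizer_le_normalizer_map_char A (Cfsg.pCore p A)).trans ?_
    rw [← hB, h₁.normalizer_eq (map_pCore_isPGroup A)
      (map_pCore_ne_bot (hle.trans inf_le_left) hn hA (h₁.charP hloc))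
      (hn.trans (normalizer_le_normalizer_map_char A _))]
  rw [h1, inf_comm]

/-- Two distinct maximal p-locals containing each other's p-core give a primitive pair. -/
theorem pair_of_isMaxLocal (hloc : Cfsg.IsOfLocalCharacteristic p G) {M₁ M₂ : Subgroup G}
    (h₁ : IsMaxLocal p M₁) (h₂ : IsMaxLocal p M₂) (hne : M₁ ≠ M₂)
    (h12 : (Cfsg.pCore p M₁).map M₁.subtype ≤ M₂) (h21 : (Cfsg.pCore p M₂).map M₂.subtype ≤ M₁) :
    ∃ M₁ M₂ : Subgroup G, M₁ ≠ M₂ ∧
      (∀ A : Subgroup G, A ≠ ⊥ → A ≤ M₁ ⊓ M₂ →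
        (M₁ ≤ Subgroup.normalizer (A : Set G) →
            M₂ ⊓ Subgroup.normalizer (A : Set G) = M₁ ⊓ M₂) ∧
          (M₂ ≤ Subgroup.normalizer (A : Set G) →
            M₁ ⊓ Subgroup.normalizer (A : Set G) = M₁ ⊓ M₂)) ∧
      Subgroup.centralizer (Cfsg.pCore p ↥M₁ : Set ↥M₁) ≤ Cfsg.pCore p ↥M₁ ∧
      Subgroup.centralizer (Cfsg.pCore p ↥M₂ : Set ↥M₂) ≤ Cfsg.pCore p ↥M₂ ∧
      (Cfsg.pCore p ↥M₁).map M₁.subtype ⊔ (Cfsg.pCore p ↥M₂).map M₂.subtype ≤ M₁ ⊓ M₂ := by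
  refine ⟨M₁, M₂, hne, fun A hA hle => ⟨fun hn => primitive_of_isMaxLocal hloc h₁ hA hle hn,
    fun hn => ?_⟩, h₁.charP hloc, h₂.charP hloc,
    sup_le (le_inf (Subgroup.map_subtype_le _) h12) (le_inf h21 (Subgroup.map_subtype_le _))⟩
  rw [inf_comm M₁ M₂] at hle ⊢
  exact primitive_of_isMaxLocal hloc h₂ hA hle hn

/-- A maximal p-subgroup of `M` contains `O_p(M)`. -/
theorem map_pCore_le_of_maximal {M D : Subgroup G} (hD : IsPGroup p D) (hDM : D ≤ M)
    (hmax : ∀ E : Subgroup G, IsPGroup p E → D ≤ E → E ≤ M → E = D) :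
    (Cfsg.pCore p M).map M.subtype ≤ D := by
  have hQ := map_pCore_isPGroup (p := p) M
  have hsup : IsPGroup p ↥(D ⊔ (Cfsg.pCore p M).map M.subtype) :=
    hD.to_sup_of_normal_right' hQ (hDM.trans (le_normalizer_map_char M _))
  exact le_sup_right.trans (hmax _ hsup le_sup_left (sup_le hDM (Subgroup.map_subtype_le _))).le

theorem exists_max_pSubgroup {M D : Subgroup G} (hD : IsPGroup p D) (hDM : D ≤ M) :
    ∃ S : Subgroup G, IsPGroup p S ∧ D ≤ S ∧ S ≤ M ∧
      ∀ E : Subgroup G, IsPGroup p E → S ≤ E → E ≤ M → E = S := by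
  obtain ⟨S, hDS, hS⟩ := Finite.exists_le_maximal
    (p := fun E : Subgroup G => IsPGroup p E ∧ E ≤ M) ⟨hD, hDM⟩
  exact ⟨S, hS.prop.1, hDS, hS.prop.2, fun E h1 h2 h3 => le_antisymm (hS.le_of_ge ⟨h1, h3⟩ h2) h2⟩

/-- Either two maximal p-locals contain each other's p-core, or all are strongly p-embedded. -/
theorem exists_pair_or_stronglyEmbedded (hloc : Cfsg.IsOfLocalCharacteristic p G) {M : Subgroup G}
    (hM : IsMaxLocal p M) {g : G} (hg : g ∉ M)
    (hdvd : p ∣ Nat.card ↥(M ⊓ M.map (MulAut.conj g).toMonoidHom)) :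
    ∃ M₁ M₂ : Subgroup G, IsMaxLocal p M₁ ∧ IsMaxLocal p M₂ ∧ M₁ ≠ M₂ ∧
      (Cfsg.pCore p M₁).map M₁.subtype ≤ M₂ ∧ (Cfsg.pCore p M₂).map M₂.subtype ≤ M₁ := by
  have hconj_ne : ∀ {M : Subgroup G}, IsMaxLocal p M → ∀ {g : G}, g ∉ M →
      M.map (MulAut.conj g).toMonoidHom ≠ M := by
    intro M hM g hg heq
    apply hg
    rw [← hM.normalizer_pCore]
    refine normalizer_le_normalizer_map_char M _ (Subgroup.mem_normalizer_iff.mpr fun y => ?_)
    constructor
    · intro hy; exact heq ▸ (⟨y, hy, rfl⟩ : g * y * g⁻¹ ∈ M.map (MulAut.conj g).toMonoidHom)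
    · intro hy
      obtain ⟨z, hz, hzy⟩ := heq.symm ▸ hy
      simp only [MulEquiv.coe_toMonoidHom, MulAut.conj_apply, mul_left_inj, mul_right_inj] at hzy
      exact hzy ▸ hz
  by_cases hfull : ∀ L : Subgroup G, IsMaxLocal p L → ∀ D : Subgroup G, IsPGroup p D → D ≤ L →
      (∀ E : Subgroup G, IsPGroup p E → D ≤ E → E ≤ L → E = D) →
      ∀ E : Subgroup G, IsPGroup p E → D ≤ E → E = D
  · -- choose distinct maximal locals with a largest common p-subgroup
    let s : Set ℕ := {k | ∃ M₁ M₂ : Subgroup G, IsMaxLocal p M₁ ∧ IsMaxLocal p M₂ ∧ M₁ ≠ M₂ ∧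
      ∃ D : Subgroup G, IsPGroup p D ∧ D ≠ ⊥ ∧ D ≤ M₁ ⊓ M₂ ∧ Nat.card D = k}
    have hs : s.Nonempty := by
      obtain ⟨x, hx⟩ := exists_prime_orderOf_dvd_card'
        (G := ↥(M ⊓ M.map (MulAut.conj g).toMonoidHom)) p hdvd
      refine ⟨_, M, _, hM, hM.conj g, (hconj_ne hM hg).symm, Subgroup.zpowers (x : G),
        IsPGroup.of_card (n := 1) (by rw [Nat.card_zpowers, Subgroup.orderOf_coe, hx, pow_one]),
        ?_, Subgroup.zpowers_le.mpr x.2, rfl⟩
      rw [Subgroup.zpowers_ne_bot]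
      intro h1
      rw [← Subgroup.orderOf_coe, h1, orderOf_one] at hx
      exact (Fact.out : p.Prime).ne_one hx.symm
    have hfin : s.Finite := (Set.finite_le_nat (Nat.card G)).subset fun k => by
      rintro ⟨_, _, _, _, _, D, _, _, _, rfl⟩; exact Subgroup.card_le_card_group D
    obtain ⟨k, hk, hkmax⟩ := hfin.exists_maximal hs |> fun ⟨k, hk⟩ =>
      (⟨k, hk.prop, fun j hj => not_lt.mp fun hlt => hlt.not_ge (hk.le_of_ge hj hlt.le)⟩ :
        ∃ k ∈ s, ∀ j ∈ s, j ≤ k)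
    obtain ⟨M₁, M₂, h1, h2, hne, D, hD, hD1, hDle, rfl⟩ := hk
    obtain ⟨S₁, hS₁, hDS₁, hS₁M, hS₁max⟩ := exists_max_pSubgroup hD (hDle.trans inf_le_left)
    obtain ⟨S₂, hS₂, hDS₂, hS₂M, hS₂max⟩ := exists_max_pSubgroup hD (hDle.trans inf_le_right)
    refine ⟨M₁, M₂, h1, h2, hne, ?_⟩
    -- if `D` is a maximal p-subgroup of one of them it is one of both
    have hboth : ∀ {M₁ M₂ S₁ : Subgroup G}, IsMaxLocal p M₁ → IsPGroup p S₁ →
        (∀ E : Subgroup G, IsPGroup p E → S₁ ≤ E → E ≤ M₁ → E = S₁) → S₁ ≤ M₁ → S₁ = D →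
        D ≤ M₁ → D ≤ M₂ →
        (Cfsg.pCore p M₁).map M₁.subtype ≤ M₂ ∧ (Cfsg.pCore p M₂).map M₂.subtype ≤ M₁ := by
      intro M₁ M₂ S₁ h1 hS hmax hSM hSD hDM₁ hDM₂
      subst hSD
      exact ⟨(map_pCore_le_of_maximal hS hSM hmax).trans hDM₂,
        (map_pCore_le_of_maximal hS hDM₂ fun E hE hle _ =>
          hfull M₁ h1 _ hS hSM hmax E hE hle).trans hDM₁⟩
    by_cases e1 : S₁ = D
    · exact hboth h1 hS₁ hS₁max hS₁M e1 (hDle.trans inf_le_left) (hDle.trans inf_le_right)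
    by_cases e2 : S₂ = D
    · exact (hboth h2 hS₂ hS₂max hS₂M e2 (hDle.trans inf_le_right) (hDle.trans inf_le_left)).symm
    exfalso
    obtain ⟨L, hL, hNL⟩ := exists_isMaxLocal_ge (p := p) ⟨D, hD, hD1, rfl⟩
    have key : ∀ {M₁ S₁ : Subgroup G}, IsMaxLocal p M₁ → IsPGroup p S₁ → S₁ ≤ M₁ → D < S₁ →
        M₁ = L := by
      intro M₁ S₁ h1 hS hSM hlt
      by_contra hne'
      have hlt' := Cfsg.Agent.PGroup.lt_inf_normalizer hS hlt
      have hne1 : S₁ ⊓ Subgroup.normalizer (D : Set G) ≠ ⊥ := fun e => hD1 (le_bot_iff.mp (e ▸ hlt'.le))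
      refine (hkmax _ ⟨M₁, L, h1, hL, hne', _, hS.to_inf_left, hne1,
        le_inf (inf_le_left.trans hSM) (inf_le_right.trans hNL), rfl⟩).not_gt ?_
      exact lt_of_le_of_ne (Subgroup.card_le_of_le hlt'.le)
        fun e => hlt'.ne (Subgroup.eq_of_le_of_card_ge hlt'.le e.ge)
    exact hne ((key h1 hS₁ hS₁M (lt_of_le_of_ne hDS₁ (Ne.symm e1))).trans
      (key h2 hS₂ hS₂M (lt_of_le_of_ne hDS₂ (Ne.symm e2))).symm)
  · push Not at hfull
    obtain ⟨L, hL, D, hD, hDL, hmax, E, hE, hDE, hne⟩ := hfull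
    have hlt := Cfsg.Agent.PGroup.lt_inf_normalizer hE (lt_of_le_of_ne hDE (Ne.symm hne))
    obtain ⟨u, hu, huD⟩ := SetLike.exists_of_lt hlt
    have huL : u ∉ L := by
      intro huL
      have := hmax ((E ⊓ Subgroup.normalizer (D : Set G)) ⊓ L) (hE.to_inf_left.to_inf_left)
        (le_inf hlt.le hDL) inf_le_right
      exact huD (this ▸ (⟨hu, huL⟩ : u ∈ (E ⊓ Subgroup.normalizer (D : Set G)) ⊓ L))
    have hQ := map_pCore_le_of_maximal hD hDL hmax
    have hcD : ∀ x, x ∈ D ↔ u * x * u⁻¹ ∈ D := Subgroup.mem_normalizer_iff.mp hu.2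
    refine ⟨L, _, hL, hL.conj u, (hconj_ne hL huL).symm, fun x hx => ?_, fun x hx => ?_⟩
    · exact ⟨u⁻¹ * x * u, hDL ((hcD _).mpr (by simpa [mul_assoc] using hQ hx)),
        by simp [MulAut.conj_apply, mul_assoc]⟩
    · -- the p-core of the conjugate is the conjugate of the p-core
      have hn : L.map (MulAut.conj u).toMonoidHom ≤ Subgroup.normalizer
          (((Cfsg.pCore p ↥(L.map (MulAut.conj u).toMonoidHom)).map
            (L.map (MulAut.conj u).toMonoidHom).subtype : Subgroup G) : Set G) :=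
        le_normalizer_map_char _ _
      set R := (Cfsg.pCore p ↥(L.map (MulAut.conj u).toMonoidHom)).map
        (L.map (MulAut.conj u).toMonoidHom).subtype with hR
      have hRL : R ≤ L.map (MulAut.conj u).toMonoidHom := Subgroup.map_subtype_le _
      have hR' : R.map (MulAut.conj u⁻¹).toMonoidHom ≤ (Cfsg.pCore p L).map L.subtype := by
        refine le_map_pCore ?_ ?_ ((map_pCore_isPGroup _).map _)
        · rintro _ ⟨r, hr, rfl⟩
          obtain ⟨l, hl, rfl⟩ := hRL hr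
          simpa [MulAut.conj_apply, mul_assoc] using hl
        · intro l hl
          refine Subgroup.mem_normalizer_iff.mpr fun y => ?_
          simp only [Subgroup.mem_map_equiv, MulAut.conj_symm_apply]
          rw [Subgroup.mem_normalizer_iff.mp (hn ⟨l, hl, rfl⟩)]
          simp only [MulEquiv.coe_toMonoidHom, MulAut.conj_apply]
          exact Iff.of_eq (congrArg (· ∈ R) (by group))
      have := hQ (hR' ⟨x, hx, rfl⟩)
      simp only [MulEquiv.coe_toMonoidHom, MulAut.conj_apply] at this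
      exact hDL (by
        have h2 := (hcD _).mp this
        simpa [mul_assoc] using h2)

end Cfsg.Agent.Primitive
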