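import Cfsg.Agent.Primitive.Basic
import Cfsg.Agent.Cores.Fitting
import Cfsg.Agent.Components.FStar
import Cfsg.Agent.Coprime.Action

/-!
# Primitive subgroups
-/

namespace Cfsg.Agent.Primitive

set_option linter.style.haveILetI false
open scoped Pointwise

variable {G : Type*} [Group G] [Finite G] {M : Subgroup G}

/-- A minimal non-trivial subnormal subgroup is simple. -/
theorem exists_simple_subnormal_le {L : Subgroup G} (hL : L.IsSubnormal) (hL1 : L ≠ ⊥) :
    ∃ K : Subgroup G, K ≤ L ∧ K ≠ ⊥ ∧ K.IsSubnormal ∧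
      ∀ N : Subgroup K, N.Normal → N = ⊥ ∨ N = ⊤ := by
  induction hn : Nat.card L using Nat.strong_induction_on generalizing L with
  | _ n ih =>
    subst hn
    by_cases h : ∀ N : Subgroup L, N.Normal → N = ⊥ ∨ N = ⊤
    · exact ⟨L, le_rfl, hL1, hL, h⟩
    · push Not at h
      obtain ⟨N, hN, hN1, hN2⟩ := h
      have hsub : (N.map L.subtype).IsSubnormal :=
        Subgroup.IsSubnormal.step _ L (Subgroup.map_subtype_le N) hL (by
          rw [Subgroup.subgroupOf, Subgroup.comap_map_eq_self_of_injective L.subtype_injective]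
          exact hN)
      have hlt : Nat.card (N.map L.subtype) < Nat.card L := by
        rw [Subgroup.card_map_of_injective L.subtype_injective]
        exact lt_of_le_of_ne N.card_le_card_group fun e => hN2 (Subgroup.eq_top_of_card_eq _ e)
      obtain ⟨K, hK, h1, h2, h3⟩ := ih _ hlt hsub
        (fun e => hN1 ((Subgroup.map_eq_bot_iff_of_injective _ L.subtype_injective).mp e)) rfl
      exact ⟨K, hK.trans (Subgroup.map_subtype_le N), h1, h2, h3⟩

variable (hprim : ∀ N : Subgroup G, N ≤ M → M ≤ Subgroup.normalizer (N : Set G) → N ≠ ⊥ →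
  Subgroup.normalizer (N : Set G) = M)
include hprim

/-- A normal subgroup meeting `M` non-trivially, and normalizing the intersection, lies in `M`. -/
theorem le_of_le_normalizer {A X : Subgroup G} (hXM : X ≤ M)
    (hXn : M ≤ Subgroup.normalizer (X : Set G)) (hX : X ≠ ⊥)
    (hA : A ≤ Subgroup.normalizer (X : Set G)) : A ≤ M :=
  hA.trans (hprim X hXM hXn hX).le

theorem not_normal_le (hM : M ≠ ⊤) {N : Subgroup G} [N.Normal] (hNM : N ≤ M) : N = ⊥ := by
  by_contra hN
  refine hM ?_
  rw [← hprim N hNM ?_ hN, Subgroup.normalizer_eq_top N]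
  rw [Subgroup.normalizer_eq_top N]
  exact le_top

/-- `M ∩ F(G) = 1`. -/
theorem inf_fitting_eq_bot (hM : M ≠ ⊤) : M ⊓ Cfsg.fittingSubgroup G = ⊥ := by
  set F := Cfsg.fittingSubgroup G with hF
  by_contra hX
  have hXn : M ≤ Subgroup.normalizer ((M ⊓ F : Subgroup G) : Set G) := by
    intro m hm
    refine Subgroup.mem_normalizer_iff.mpr fun y => ?_
    rw [Subgroup.mem_inf, Subgroup.mem_inf, Subgroup.mem_normalizer_iff.mp (Subgroup.le_normalizer hm) y,
      Subgroup.mem_normalizer_iff.mp ((Subgroup.normalizer_eq_top F).ge (Subgroup.mem_top m)) y]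
  have hN := hprim _ inf_le_left hXn hX
  by_cases hle : F ≤ M
  · rw [inf_eq_right.mpr hle] at hX
    exact hX (not_normal_le hprim hM hle)
  · haveI : Group.IsNilpotent F := Cfsg.Agent.Cores.fittingSubgroup_isNilpotent
    have hlt : (M ⊓ F).subgroupOf F < ⊤ := lt_top_iff_ne_top.mpr fun h =>
      hle ((Subgroup.subgroupOf_eq_top.mp h).trans inf_le_left)
    obtain ⟨x, hx, hx'⟩ := SetLike.exists_of_lt
      (Group.normalizerCondition_of_isNilpotent (G := F) _ hlt)
    refine hx' (Subgroup.mem_subgroupOf.mpr ⟨hN ▸ Subgroup.mem_normalizer_iff.mpr fun a => ?_, x.2⟩)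
    constructor
    · intro ha
      have := (Subgroup.mem_normalizer_iff.mp hx ⟨a, ha.2⟩).mp (Subgroup.mem_subgroupOf.mpr ha)
      exact ⟨by simpa [Subgroup.mem_subgroupOf] using this,
        F.mul_mem (F.mul_mem x.2 ha.2) (F.inv_mem x.2)⟩
    · intro ha
      have hK' : a ∈ F := by
        have := F.mul_mem (F.mul_mem (F.inv_mem x.2) ha.2) x.2
        simpa [mul_assoc] using this
      have h2 := Subgroup.mem_normalizer_iff.mp hx ⟨a, hK'⟩
      simp only [Subgroup.mem_subgroupOf] at h2
      exact h2.mpr (by simpa using ha)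

/-- No component lies in `M`. -/
theorem component_not_le (hM : M ≠ ⊤) {K : Subgroup G} (hK : Cfsg.IsComponent K) : ¬ K ≤ M := by
  intro hKM
  set X := sSup {C : Subgroup G | Cfsg.IsComponent C ∧ C ≤ M} with hX
  have hXM : X ≤ M := sSup_le fun C hC => hC.2
  have hX1 : X ≠ ⊥ := fun e =>
    Cfsg.Agent.Components.component_ne_bot hK (le_bot_iff.mp (e ▸ le_sSup ⟨hK, hKM⟩))
  have hXn : M ≤ Subgroup.normalizer (X : Set G) := by
    have key : ∀ m ∈ M, X.map (MulAut.conj m).toMonoidHom ≤ X := by
      intro m hm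
      rw [hX, sSup_eq_iSup, Subgroup.map_iSup]
      refine iSup_le fun C => ?_
      rw [Subgroup.map_iSup]
      refine iSup_le fun hC => ?_
      refine le_iSup₂_of_le _ ⟨Cfsg.Agent.Components.component_conj m hC.1, ?_⟩ le_rfl
      rintro _ ⟨c, hc, rfl⟩
      exact M.mul_mem (M.mul_mem hm (hC.2 hc)) (M.inv_mem hm)
    intro m hm
    refine Subgroup.mem_normalizer_iff.mpr fun y => ⟨fun hy => key m hm ⟨y, hy, rfl⟩, fun hy => ?_⟩
    have := key m⁻¹ (inv_mem hm) ⟨_, hy, rfl⟩
    simpa [mul_assoc] using this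
  have hlayer : Cfsg.layer G ≤ M := by
    refine le_of_le_normalizer hprim hXM hXn hX1 (sSup_le fun L (hL : Cfsg.IsComponent L) => ?_)
    intro l hl
    have hmap : X.map (MulAut.conj l).toMonoidHom ≤ X := by
      rw [hX, sSup_eq_iSup, Subgroup.map_iSup]
      refine iSup_le fun C => ?_
      rw [Subgroup.map_iSup]
      refine iSup_le fun hC => le_iSup₂_of_le C hC ?_
      rintro _ ⟨c, hc, rfl⟩
      exact (Subgroup.mem_normalizer_iff.mp
        (Cfsg.Agent.Components.component_normalizes hC.1 hL hl) c).mp hc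
    refine Subgroup.mem_normalizer_iff.mpr fun y => ⟨fun hy => hmap ⟨y, hy, rfl⟩, fun hy => ?_⟩
    have heq := Subgroup.eq_of_le_of_card_ge hmap
      (Subgroup.card_map_of_injective (MulAut.conj l).injective).ge
    obtain ⟨z, hz, hzy⟩ := heq.ge hy
    simp only [MulEquiv.coe_toMonoidHom, MulAut.conj_apply, mul_left_inj, mul_right_inj] at hzy
    exact hzy ▸ hz
  haveI := (Cfsg.Agent.Components.layer_normal (G := G))
  exact Cfsg.Agent.Components.component_ne_bot hK
    (le_bot_iff.mp ((not_normal_le hprim hM hlayer) ▸ Cfsg.Agent.Components.component_le_layer hK))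

/-- No non-trivial subnormal subgroup lies in `M`. -/
theorem subnormal_le_eq_bot (hM : M ≠ ⊤) {L : Subgroup G} (hL : L.IsSubnormal) (hLM : L ≤ M) :
    L = ⊥ := by
  by_contra hL1
  obtain ⟨K, hKL, hK1, hKs, hsimple⟩ := exists_simple_subnormal_le hL hL1
  haveI : Nontrivial K := (Subgroup.nontrivial_iff_ne_bot K).mpr hK1
  by_cases hcomm : IsMulCommutative K
  · haveI := hcomm
    letI : CommGroup K := { (inferInstance : Group K) with mul_comm := hcomm.is_comm.comm }
    have hKF : K ≤ Cfsg.fittingSubgroup G :=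
      Cfsg.Agent.Cores.le_fittingSubgroup_of_isSubnormal hKs CommGroup.isNilpotent
    exact hK1 (le_bot_iff.mp ((le_inf (hKL.trans hLM) hKF).trans (inf_fitting_eq_bot hprim hM).le))
  · have hperf : commutator K = ⊤ := (hsimple _ inferInstance).resolve_left fun h => hcomm
      ⟨⟨fun a b => Subgroup.mem_center_iff.mp
        (((commutator_eq_bot_iff_center_eq_top K).mp h) ▸ Subgroup.mem_top b) a⟩⟩
    haveI : Group.IsPerfect K := ⟨hperf⟩
    have hq : Cfsg.IsQuasisimple K := Cfsg.Agent.Components.quasisimple_of_forall_normal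
      fun N hN => (hsimple N hN).symm.imp id fun h => h.le.trans bot_le
    exact component_not_le hprim hM ⟨hKs, hq⟩ (hKL.trans hLM)

theorem centralizer_le {X : Subgroup G} (hXM : X ≤ M)
    (hXn : M ≤ Subgroup.normalizer (X : Set G)) (hX : X ≠ ⊥) :
    Subgroup.centralizer (X : Set G) ≤ M :=
  le_of_le_normalizer hprim hXM hXn hX (Subgroup.centralizer_le_normalizer _)

end Cfsg.Agent.Primitive
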